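import Mathlib
import Cfsg.Agent.Lib.Helper19.KAlt.Defs5

/-!
# LW5 (S0748), package [INVSET]

An involution with at least four fixed points stabilises a `k`-set on which it moves `2 mod 4`
points.
-/

set_option autoImplicit false

namespace Cfsg.Agent.Lib.Helper24.KAlt

open Cfsg.Agent.Lib.Helper19.KAlt

universe u

/-- invariant subsets of the moved points of an involution of every even size -/
theorem inv_sub_moved {α : Type u} [Fintype α] [DecidableEq α] (t : Equiv.Perm α)
    (ht : t * t = 1) (j : ℕ)
    (hj : 2 * j ≤ (Finset.univ.filter (fun a => t a ≠ a)).card) :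
    ∃ X : Finset α, X ⊆ Finset.univ.filter (fun a => t a ≠ a) ∧ (∀ a ∈ X, t a ∈ X) ∧
      X.card = 2 * j := by
  have htt : ∀ a, t (t a) = a := fun a => by
    have := congrArg (fun f => f a) ht
    simpa using this
  induction j with
  | zero => exact ⟨∅, by simp, by simp, by simp⟩
  | succ j ih =>
    obtain ⟨X, hX, hinv, hc⟩ := ih (by omega)
    have hlt : X.card < (Finset.univ.filter (fun a => t a ≠ a)).card := by omega
    obtain ⟨a, haM, haX⟩ := Finset.exists_mem_notMem_of_card_lt_card hlt
    have hta : t a ≠ a := by simpa using haM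
    have htaX : t a ∉ X := fun h => haX (by simpa [htt] using hinv _ h)
    refine ⟨insert a (insert (t a) X), ?_, ?_, ?_⟩
    · intro b hb
      simp only [Finset.mem_insert] at hb
      rcases hb with rfl | rfl | hb
      · exact haM
      · simp only [Finset.mem_filter, Finset.mem_univ, true_and, htt]
        exact fun h => hta h.symm
      · exact hX hb
    · intro b hb
      simp only [Finset.mem_insert] at hb ⊢
      rcases hb with rfl | rfl | hb
      · right; left; rfl
      · left; exact htt a
      · right; right; exact hinv b hb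
    · rw [Finset.card_insert_of_notMem, Finset.card_insert_of_notMem htaX, hc]
      · ring
      · simp only [Finset.mem_insert, not_or]
        exact ⟨fun h => hta h.symm, haX⟩

theorem pkgInvSet : PkgInvSet.{u} := by
  intro α _ _ t k ht ht1 hk hkn ⟨s, hs4, hsfix⟩
  have htt : ∀ a, t (t a) = a := fun a => by
    have := congrArg (fun f => f a) ht
    simpa using this
  have hFM : (Finset.univ.filter (fun a => t a = a)).card
      + (Finset.univ.filter (fun a => t a ≠ a)).card = Fintype.card α := by
    have := Finset.card_filter_add_card_filter_not (s := (Finset.univ : Finset α))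
      (fun a => t a = a)
    simpa using this
  have hf4 : 4 ≤ (Finset.univ.filter (fun a => t a = a)).card := by
    rw [← hs4]
    apply Finset.card_le_card
    intro a ha
    simp [hsfix a ha]
  have hm2 : 2 ≤ (Finset.univ.filter (fun a => t a ≠ a)).card := by
    obtain ⟨a, ha⟩ : ∃ a, t a ≠ a := by
      by_contra h
      push Not at h
      exact ht1 (Equiv.ext h)
    have hsub : ({a, t a} : Finset α) ⊆ Finset.univ.filter (fun a => t a ≠ a) := by
      intro b hb
      simp only [Finset.mem_insert, Finset.mem_singleton] at hb
      rcases hb with rfl | rfl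
      · simp [ha]
      · simp only [Finset.mem_filter, Finset.mem_univ, true_and, htt]
        exact fun h => ha h.symm
    calc 2 = ({a, t a} : Finset α).card := (Finset.card_pair (Ne.symm ha)).symm
      _ ≤ _ := Finset.card_le_card hsub
  obtain ⟨i, hio, hi1, hi2, hi3⟩ : ∃ i : ℕ, Odd i ∧
      k ≤ 2 * i + (Finset.univ.filter (fun a => t a = a)).card ∧ 2 * i ≤ k ∧
      2 * i ≤ (Finset.univ.filter (fun a => t a ≠ a)).card := by
    by_cases hc : k ≤ (Finset.univ.filter (fun a => t a = a)).card + 2
    · exact ⟨1, odd_one, by omega, by omega, by omega⟩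
    · push Not at hc
      rcases Nat.even_or_odd (k / 2) with he | ho
      · refine ⟨k / 2 - 1, ?_, by omega, by omega, by omega⟩
        rcases he with ⟨c, hc'⟩
        exact ⟨c - 1, by omega⟩
      · exact ⟨k / 2, ho, by omega, by omega, by omega⟩
  obtain ⟨X, hXM, hXinv, hXc⟩ := inv_sub_moved t ht i hi3
  obtain ⟨F', hF'F, hF'c⟩ := Finset.exists_subset_card_eq
    (s := Finset.univ.filter (fun a => t a = a)) (n := k - 2 * i) (by omega)
  have hXne : ∀ a ∈ X, t a ≠ a := fun a ha => by simpa using hXM ha
  have hFeq : ∀ a ∈ F', t a = a := fun a ha => by simpa using hF'F ha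
  have hdisj : Disjoint X F' := by
    rw [Finset.disjoint_left]
    intro a haX haF
    exact hXne a haX (hFeq a haF)
  have hfwd : ∀ a, a ∈ X ∪ F' → t a ∈ X ∪ F' := by
    intro a ha
    rcases Finset.mem_union.mp ha with h | h
    · exact Finset.mem_union_left _ (hXinv a h)
    · rw [hFeq a h]; exact ha
  refine ⟨X ∪ F', ?_, ?_, ?_⟩
  · rw [Finset.card_union_of_disjoint hdisj, hXc, hF'c]; omega
  · intro a
    refine ⟨fun h => ?_, hfwd a⟩
    have := hfwd _ h
    rwa [htt] at this
  · have : (X ∪ F').filter (fun a => t a ≠ a) = X := by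
      ext a
      simp only [Finset.mem_filter, Finset.mem_union]
      constructor
      · rintro ⟨h | h, hne⟩
        · exact h
        · exact absurd (hFeq a h) hne
      · intro h
        exact ⟨Or.inl h, hXne a h⟩
    rw [this, hXc]
    obtain ⟨c, rfl⟩ := hio
    omega

end Cfsg.Agent.Lib.Helper24.KAlt
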